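import Mathlib
import Cfsg.Agent.PermPrimes.TwoPrimes
import Cfsg.Agent.Balance.ExtendedLayer

/-!
Groups whose order and spectrum are those of an alternating group: the large primes
lie together in one chief factor.
-/

set_option autoImplicit false

namespace CfsgLib.Recog5

open Subgroup

variable {G : Type*} [Group G] [Finite G]

/-- No element has order `p * q`. -/
def NoPairOrder (G : Type*) [Group G] (p q : ℕ) : Prop := ∀ g : G, orderOf g ≠ p * q

theorem exists_orderOf_eq_of_dvd {g : G} {d : ℕ} (h : d ∣ orderOf g) : ∃ x : G, orderOf x = d := by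
  obtain ⟨k, hk⟩ := h
  refine ⟨g ^ k, ?_⟩
  have hpos := orderOf_pos g
  have hk0 : k ≠ 0 := by rintro rfl; rw [mul_zero] at hk; omega
  rw [orderOf_pow' g hk0, hk, Nat.gcd_mul_left_left, Nat.mul_div_cancel _ (Nat.pos_of_ne_zero hk0)]

theorem exists_orderOf_mul_of_commute {p q : ℕ} (hp : p.Prime) (hq : q.Prime) (hpq : p ≠ q)
    {x y : G} (hx : p ∣ orderOf x) (hy : orderOf y = q) (hc : Commute x y) :
    ∃ z : G, orderOf z = p * q := by
  obtain ⟨k, hk⟩ := hx
  have hk0 : k ≠ 0 := by rintro rfl; have := orderOf_pos x; rw [mul_zero] at hk; omega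
  have hxk : orderOf (x ^ k) = p := by
    rw [orderOf_pow' x hk0, hk, Nat.gcd_mul_left_left, Nat.mul_div_cancel _ (Nat.pos_of_ne_zero hk0)]
  refine ⟨x ^ k * y, ?_⟩
  rw [(hc.pow_left k).orderOf_mul_eq_mul_orderOf_of_coprime, hxk, hy]
  rw [hxk, hy]
  exact (Nat.coprime_primes hp hq).mpr hpq

/-- The Frattini argument: `p` inside a normal subgroup, `q` outside. -/
theorem exists_pair_of_dvd {p q a : ℕ} (hp : p.Prime) (hq : q.Prime) (hpq : p ≠ q)
    (hqq : ¬ q * q ∣ Nat.card G) (hpa : ¬ p ^ (a + 1) ∣ Nat.card G)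
    (hmod : ∀ i, 1 ≤ i → i ≤ a → ¬ q ∣ p ^ i - 1)
    (N : Subgroup G) [N.Normal] (hpN : p ∣ Nat.card N) (hqG : q ∣ Nat.card G)
    (hqN : ¬ q ∣ Nat.card N) : ∃ z : G, orderOf z = p * q := by
  classical
  haveI : Fact p.Prime := ⟨hp⟩
  haveI : Fact q.Prime := ⟨hq⟩
  obtain ⟨P⟩ : Nonempty (Sylow p N) := inferInstance
  set Q := (P : Subgroup N).map N.subtype with hQ
  have hsup : normalizer (Q : Set G) ⊔ N = ⊤ := Sylow.normalizer_sup_eq_top P
  have hqidx : q ∣ N.index := by
    have h : q ∣ Nat.card N * N.index := by rw [N.card_mul_index]; exact hqG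
    exact (hq.dvd_mul.mp h).resolve_left hqN
  have hqn : q ∣ Nat.card (normalizer (Q : Set G)) := by
    refine hqidx.trans ?_
    have hi : N.index = N.relIndex (normalizer (Q : Set G)) := by
      rw [← Subgroup.relIndex_top_right N, ← hsup, Subgroup.relIndex_sup_right]
    rw [hi]
    exact Subgroup.relIndex_dvd_card _ _
  obtain ⟨⟨y, hyn⟩, hy⟩ := exists_prime_orderOf_dvd_card' q hqn
  rw [Subgroup.orderOf_mk] at hy
  obtain ⟨i, hi⟩ := IsPGroup.iff_card.mp P.2
  have hQc : Nat.card Q = p ^ i := by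
    rw [← hi]; exact Subgroup.card_map_of_injective N.subtype_injective
  have hi1 : 1 ≤ i := by
    by_contra h0
    have h1 := P.dvd_card_of_dvd_card hpN
    rw [hi, show i = 0 by omega, pow_zero, Nat.dvd_one] at h1
    exact hp.ne_one h1
  have hia : i ≤ a := by
    by_contra h0
    exact hpa ((pow_dvd_pow p (by omega : a + 1 ≤ i)).trans
      (hQc ▸ Subgroup.card_subgroup_dvd_card Q))
  have hconj : ∀ x : G, x ∈ Q ↔ y * x * y⁻¹ ∈ Q := fun x => Subgroup.mem_normalizer_iff.mp hyn x
  have hne : ∀ x : G, (x ∈ Q ∧ x ≠ 1) ↔ ((MulAut.conj y).toEquiv x ∈ Q ∧ (MulAut.conj y).toEquiv x ≠ 1) := by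
    intro x
    rw [show (MulAut.conj y).toEquiv x = y * x * y⁻¹ from rfl, ← hconj, ne_eq, ne_eq,
      mul_inv_eq_one, mul_eq_left]
  let σ : Equiv.Perm {x : G // x ∈ Q ∧ x ≠ 1} :=
    Equiv.Perm.subtypePerm (MulAut.conj y).toEquiv fun x => (hne x).symm
  letI : Fintype {x : G // x ∈ Q ∧ x ≠ 1} := Fintype.ofFinite _
  have hcard : Nat.card {x : G // x ∈ Q ∧ x ≠ 1} = p ^ i - 1 := by
    have e : {x : G // x ∈ Q ∧ x ≠ 1} ≃ {x : Q // x ≠ 1} :=
      { toFun := fun x => ⟨⟨x.1, x.2.1⟩, fun h => x.2.2 (congrArg Subtype.val h)⟩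
        invFun := fun x => ⟨x.1.1, x.1.2, fun h => x.2 (Subtype.ext h)⟩
        left_inv := fun x => rfl
        right_inv := fun x => rfl }
    letI : Fintype Q := Fintype.ofFinite _
    rw [Nat.card_congr e, Nat.card_eq_fintype_card, Fintype.card_subtype_compl,
      Fintype.card_subtype_eq, ← Nat.card_eq_fintype_card, hQc]
  have hpow : ∀ (k : ℕ) (x : {x : G // x ∈ Q ∧ x ≠ 1}),
      ((σ ^ k) x).1 = y ^ k * x.1 * (y ^ k)⁻¹ := by
    intro k
    induction k with
    | zero => intro x; simp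
    | succ k ih =>
      intro x
      rw [pow_succ', Equiv.Perm.mul_apply]
      show y * ((σ ^ k) x).1 * y⁻¹ = _
      rw [ih, pow_succ']
      group
  have hσ : σ ^ q ^ 1 = 1 := by
    refine Equiv.ext fun x => Subtype.ext ?_
    rw [hpow, pow_one, ← hy, pow_orderOf_eq_one]
    simp
  obtain ⟨x, hx⟩ := Equiv.Perm.exists_fixed_point_of_prime
    (by rw [← Nat.card_eq_fintype_card, hcard]; exact hmod i hi1 hia) hσ
  have hcomm : Commute y x.1 := by
    have h := congrArg Subtype.val hx
    show y * x.1 = x.1 * y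
    exact mul_inv_eq_iff_eq_mul.mp h
  have hpx : p ∣ orderOf x.1 := by
    have h1 : orderOf x.1 ∣ p ^ i := by
      rw [← hQc, ← Subgroup.orderOf_mk x.1 x.2.1]; exact orderOf_dvd_natCard _
    obtain ⟨j, -, hj⟩ := (Nat.dvd_prime_pow hp).mp h1
    rw [hj]
    refine dvd_pow_self p ?_
    rintro rfl
    exact x.2.2 (orderOf_eq_one_iff.mp (by rw [hj, pow_zero]))
  exact exists_orderOf_mul_of_commute hp hq hpq hpx hy hcomm.symm

/-- Linked primes divide the same normal subgroups. -/
theorem dvd_iff_of_noPair {p q a : ℕ} (hp : p.Prime) (hq : q.Prime) (hpq : p ≠ q)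
    (hpG : p ∣ Nat.card G) (hqG : q ∣ Nat.card G)
    (hqq : ¬ q * q ∣ Nat.card G) (hpa : ¬ p ^ (a + 1) ∣ Nat.card G)
    (hmod : ∀ i, 1 ≤ i → i ≤ a → ¬ q ∣ p ^ i - 1) (hmod' : ¬ p ∣ q - 1)
    (hno : NoPairOrder G p q) (N : Subgroup G) [N.Normal] :
    p ∣ Nat.card N ↔ q ∣ Nat.card N := by
  haveI : Fact p.Prime := ⟨hp⟩
  haveI : Fact q.Prime := ⟨hq⟩
  constructor
  · intro hpN
    by_contra hqN
    obtain ⟨z, hz⟩ := exists_pair_of_dvd hp hq hpq hqq hpa hmod N hpN hqG hqN
    exact hno z hz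
  · intro hqN
    by_contra hpN
    obtain ⟨Q⟩ : Nonempty (Sylow q N) := inferInstance
    set Q' := (Q : Subgroup N).map N.subtype
    have hsup : normalizer (Q' : Set G) ⊔ N = ⊤ := Sylow.normalizer_sup_eq_top Q
    obtain ⟨i, hi⟩ := IsPGroup.iff_card.mp Q.2
    have hQc : Nat.card Q' = q := by
      have h1 : Nat.card Q' = q ^ i := by
        rw [← hi]; exact Subgroup.card_map_of_injective N.subtype_injective
      have hi1 : 1 ≤ i := by
        by_contra h0
        have h2 := Q.dvd_card_of_dvd_card hqN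
        rw [hi, show i = 0 by omega, pow_zero, Nat.dvd_one] at h2
        exact hq.ne_one h2
      have hi2 : i ≤ 1 := by
        by_contra h0
        refine hqq ?_
        rw [← sq]
        exact ((pow_dvd_pow q (by omega : 2 ≤ i)).trans (h1 ▸ Subgroup.card_subgroup_dvd_card Q'))
      rw [h1, show i = 1 by omega, pow_one]
    have hidx : p ∣ N.index := by
      have h : p ∣ Nat.card N * N.index := by rw [N.card_mul_index]; exact hpG
      exact (hp.dvd_mul.mp h).resolve_left hpN
    have hn : p ∣ Nat.card (normalizer (Q' : Set G)) := by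
      refine hidx.trans ?_
      have hi : N.index = N.relIndex (normalizer (Q' : Set G)) := by
        rw [← Subgroup.relIndex_top_right N, ← hsup, Subgroup.relIndex_sup_right]
      rw [hi]
      exact Subgroup.relIndex_dvd_card _ _
    obtain ⟨⟨y, hyn⟩, hy⟩ := exists_prime_orderOf_dvd_card' p hn
    haveI : Fact p.Prime := ⟨hp⟩
    obtain ⟨⟨x, hx⟩, hx'⟩ := exists_prime_orderOf_dvd_card' (G := Q') q (dvd_of_eq hQc.symm)
    rw [Subgroup.orderOf_mk] at hy hx'
    -- conjugation by `y` is a power map on the group of order `q`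
    haveI : IsCyclic Q' := isCyclic_of_prime_card hQc
    let φ := Subgroup.normalizerMonoidHom Q' ⟨y, hyn⟩
    have hφ : φ = 1 := by
      rw [← orderOf_eq_one_iff]
      have h1 : orderOf φ ∣ p := by
        rw [← hy, ← Subgroup.orderOf_mk y hyn]; exact orderOf_map_dvd _ _
      have h2 : orderOf φ ∣ q - 1 := by
        have h3 := orderOf_dvd_natCard φ
        rwa [IsCyclic.card_mulAut, hQc, Nat.totient_prime hq] at h3
      exact Nat.eq_one_of_dvd_coprimes (hp.coprime_iff_not_dvd.mpr hmod') h1 h2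
    have hc : Commute y x := by
      have h := congrArg Subtype.val (DFunLike.congr_fun hφ ⟨x, hx⟩)
      show y * x = x * y
      exact mul_inv_eq_iff_eq_mul.mp h
    obtain ⟨z, hz⟩ := exists_orderOf_mul_of_commute hp hq hpq (dvd_of_eq hy.symm) hx' hc
    exact hno z hz

/-- A solvable group cannot link two primes. -/
theorem not_isSolvable_of_linked {p q : ℕ} (hp : p.Prime) (hq : q.Prime) (hpq : p ≠ q)
    (hpG : p ∣ Nat.card G) (hqq : ¬ q * q ∣ Nat.card G)
    (hlink : ∀ N : Subgroup G, N.Normal → (p ∣ Nat.card N ↔ q ∣ Nat.card N))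
    (hno : NoPairOrder G p q) : ¬ Group.IsSolvable G := by
  classical
  intro hs
  haveI : Fact p.Prime := ⟨hp⟩
  haveI : Fact q.Prime := ⟨hq⟩
  obtain ⟨n, hn⟩ := (Group.isSolvable_def G).mp hs
  have hex : ∃ k, ¬ p ∣ Nat.card (derivedSeries G k) := ⟨n, by rw [hn]; simp [hp.ne_one]⟩
  have h0 : Nat.find hex ≠ 0 := by
    intro h
    have h1 := Nat.find_spec hex
    rw [h, derivedSeries_zero, Subgroup.card_top] at h1
    exact h1 hpG
  obtain ⟨k, hk⟩ := Nat.exists_eq_succ_of_ne_zero h0
  have hpk : p ∣ Nat.card (derivedSeries G k) := not_not.mp (Nat.find_min hex (by omega))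
  have hpk' : ¬ p ∣ Nat.card (derivedSeries G (k + 1)) := by
    have := Nat.find_spec hex; rwa [hk] at this
  have hqk : q ∣ Nat.card (derivedSeries G k) := (hlink _ (derivedSeries_normal G k)).mp hpk
  have hqk' : ¬ q ∣ Nat.card (derivedSeries G (k + 1)) := fun h =>
    hpk' ((hlink _ (derivedSeries_normal G (k + 1))).mpr h)
  set D := derivedSeries G k
  have hcD : Nat.card (commutator D) = Nat.card (derivedSeries G (k + 1)) := by
    rw [← Subgroup.card_map_of_injective D.subtype_injective, map_subtype_commutator]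
    rfl
  have hidx : ∀ r : ℕ, r.Prime → r ∣ Nat.card D → ¬ r ∣ Nat.card (derivedSeries G (k + 1)) →
      r ∣ Nat.card (Abelianization D) := by
    intro r hr h1 h2
    rw [← (commutator D).card_mul_index, hcD] at h1
    exact ((hr.dvd_mul.mp h1).resolve_left h2)
  obtain ⟨a, ha⟩ := exists_prime_orderOf_dvd_card' p (hidx p hp hpk hpk')
  obtain ⟨b, hb⟩ := exists_prime_orderOf_dvd_card' q (hidx q hq hqk hqk')
  obtain ⟨x, hx⟩ := QuotientGroup.mk_surjective (a * b)
  have hab : orderOf (a * b) = p * q := by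
    rw [(Commute.all a b).orderOf_mul_eq_mul_orderOf_of_coprime, ha, hb]
    rw [ha, hb]
    exact (Nat.coprime_primes hp hq).mpr hpq
  have h3 : p * q ∣ orderOf (x : G) := by
    rw [Subgroup.orderOf_coe, ← hab, ← hx]
    exact orderOf_map_dvd (QuotientGroup.mk' (commutator D)) x
  obtain ⟨z, hz⟩ := exists_orderOf_eq_of_dvd h3
  exact hno z hz

/-- A chief factor carrying all the primes of a set of linked primes is simple. -/
theorem exists_simple_factor {p : ℕ} (hp : p.Prime) (hpG : p ∣ Nat.card G)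
    (hpp : ¬ p * p ∣ Nat.card G) (S : Set ℕ) (hS : ∀ r ∈ S, r.Prime) (hpS : p ∈ S)
    (hlink : ∀ r ∈ S, ∀ N : Subgroup G, N.Normal → (p ∣ Nat.card N ↔ r ∣ Nat.card N)) :
    ∃ (N H : Subgroup G) (_ : N.Normal), H.Normal ∧ N < H ∧
      IsSimpleGroup (↥H ⧸ N.subgroupOf H) ∧
      ∀ r ∈ S, r ∣ Nat.card (↥H ⧸ N.subgroupOf H) := by
  classical
  haveI : Fact p.Prime := ⟨hp⟩
  obtain ⟨H, ⟨hHn, hHp⟩, hHmin⟩ := WellFounded.has_min (wellFounded_lt (α := Subgroup G))
    {H : Subgroup G | H.Normal ∧ p ∣ Nat.card H} ⟨⊤, inferInstance, by rwa [Subgroup.card_top]⟩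
  haveI := hHn
  set N := (Cfsg.pPrimeCore p H).map H.subtype with hN
  haveI hchar : (Cfsg.pPrimeCore p H).Characteristic :=
    Subgroup.characteristic_iff_map_eq.mpr fun e => CfsgLib.Balance.pPrimeCore_map e p
  haveI hNn : N.Normal := ConjAct.normal_of_characteristic_of_normal
  have hNH : N ≤ H := Subgroup.map_subtype_le _
  have hNsub : N.subgroupOf H = Cfsg.pPrimeCore p H :=
    Subgroup.comap_map_eq_self_of_injective H.subtype_injective _
  have hcore := CfsgLib.Balance.pPrimeCore_not_dvd p H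
  have hcN : Nat.card N = Nat.card (Cfsg.pPrimeCore p H) :=
    Subgroup.card_map_of_injective H.subtype_injective
  have hlt : N < H := lt_of_le_of_ne hNH fun h => by
    rw [h] at hcN
    exact hcore (hcN ▸ hHp)
  have hdiv : ∀ r ∈ S, r ∣ Nat.card (↥H ⧸ N.subgroupOf H) := by
    intro r hr
    have h1 : r ∣ Nat.card H := (hlink r hr H hHn).mp hHp
    rw [← (N.subgroupOf H).card_mul_index] at h1
    refine ((hS r hr).dvd_mul.mp h1).resolve_left fun h2 => ?_
    rw [hNsub, ← hcN] at h2
    exact hcore (hcN ▸ (hlink r hr N hNn).mpr h2)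
  have hnt : Nontrivial (↥H ⧸ N.subgroupOf H) := by
    rw [← Finite.one_lt_card_iff_nontrivial]
    exact hp.one_lt.trans_le (Nat.le_of_dvd Nat.card_pos (hdiv p hpS))
  refine ⟨N, H, hNn, hHn, hlt, ?_, hdiv⟩
  refine { exists_pair_ne := hnt.exists_pair_ne, eq_bot_or_eq_top_of_normal := fun K hK => ?_ }
  set L := K.comap (QuotientGroup.mk' (N.subgroupOf H)) with hL
  haveI : L.Normal := hK.comap _
  by_cases hpL : p ∣ Nat.card L
  · right
    -- all elements of order `p` of `H` lie in `L`
    set Q := Cfsg.pPrimeCore p H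
    obtain ⟨P₀⟩ : Nonempty (Sylow p L) := inferInstance
    have hall : ∀ x : H, orderOf x = p → x ∈ L := by
      intro x hx
      by_contra hxL
      have hidx : p ∣ L.index := by
        have h1 : orderOf (QuotientGroup.mk' L x) ∣ p := hx ▸ orderOf_map_dvd _ x
        rcases (Nat.dvd_prime hp).mp h1 with h | h
        · exact absurd ((QuotientGroup.eq_one_iff x).mp (orderOf_eq_one_iff.mp h)) hxL
        · rw [Subgroup.index_eq_card, ← h]
          exact orderOf_dvd_natCard _
      have : p * p ∣ Nat.card H := L.card_mul_index ▸ Nat.mul_dvd_mul hpL hidx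
      exact hpp (this.trans (Subgroup.card_subgroup_dvd_card H))
    set R := Subgroup.closure {x : H | orderOf x = p} with hR
    haveI hRc : R.Characteristic := Subgroup.characteristic_iff_map_le.mpr fun e => by
      rw [hR, MonoidHom.map_closure, Subgroup.closure_le]
      rintro _ ⟨x, hx, rfl⟩
      exact Subgroup.subset_closure (show orderOf (e x) = p by rw [MulEquiv.orderOf_eq]; exact hx)
    haveI hRn : (R.map H.subtype).Normal := ConjAct.normal_of_characteristic_of_normal
    have hpR : p ∣ Nat.card (R.map H.subtype) := by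
      rw [Subgroup.card_map_of_injective H.subtype_injective]
      obtain ⟨x, hx⟩ := exists_prime_orderOf_dvd_card' p hHp
      have : x ∈ R := Subgroup.subset_closure hx
      rw [← hx, ← Subgroup.orderOf_mk x this]
      exact orderOf_dvd_natCard _
    have hRH : R.map H.subtype = H := by
      by_contra h
      exact hHmin _ ⟨hRn, hpR⟩ (lt_of_le_of_ne (Subgroup.map_subtype_le _) h)
    have hRtop : R = ⊤ := by
      apply Subgroup.map_injective H.subtype_injective
      rw [hRH, ← MonoidHom.range_eq_map, Subgroup.range_subtype]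
    have hLtop : L = ⊤ := top_le_iff.mp (hRtop ▸ (Subgroup.closure_le L).mpr hall)
    rw [← Subgroup.map_comap_eq_self_of_surjective (QuotientGroup.mk'_surjective _) K, ← hL, hLtop,
      Subgroup.map_top_of_surjective _ (QuotientGroup.mk'_surjective _)]
  · left
    have hle : L ≤ N.subgroupOf H := by
      rw [hNsub]
      exact le_sSup ⟨inferInstance, ((hp.coprime_iff_not_dvd).mpr hpL).symm⟩
    rw [← Subgroup.map_comap_eq_self_of_surjective (QuotientGroup.mk'_surjective _) K, ← hL,
      Subgroup.map_eq_bot_iff, QuotientGroup.ker_mk']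
    exact hle

/-- In the alternating group an element of order `p * q` needs `p + q` points. -/
theorem alternating_noPair {n p q : ℕ} (hp : p.Prime) (hq : q.Prime) (hpq : p ≠ q) (h : n < p + q)
    (g : alternatingGroup (Fin n)) : orderOf g ≠ p * q := by
  classical
  intro hg
  rw [← Subgroup.orderOf_coe, ← Equiv.Perm.lcm_cycleType] at hg
  set m := (g : Equiv.Perm (Fin n)).cycleType with hm
  have key : ∀ r : ℕ, r.Prime → ∀ s : Multiset ℕ, r ∣ s.lcm → ∃ a ∈ s, r ∣ a := by
    intro r hr s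
    induction s using Multiset.induction with
    | empty => intro h; simp [hr.ne_one] at h
    | cons a s ih =>
      intro h
      rw [Multiset.lcm_cons] at h
      rcases hr.dvd_mul.mp (h.trans (Nat.lcm_dvd_mul _ _)) with h1 | h1
      · exact ⟨a, Multiset.mem_cons_self _ _, h1⟩
      · obtain ⟨b, hb, hb'⟩ := ih h1
        exact ⟨b, Multiset.mem_cons_of_mem hb, hb'⟩
  obtain ⟨a, ha, hpa⟩ := key p hp m (hg ▸ dvd_mul_right p q)
  obtain ⟨b, hb, hqb⟩ := key q hq m (hg ▸ dvd_mul_left q p)
  have hsum : m.sum ≤ n := by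
    rw [hm, Equiv.Perm.sum_cycleType]
    exact (Finset.card_le_univ _).trans_eq (Fintype.card_fin n)
  have ha2 := Equiv.Perm.two_le_of_mem_cycleType ha
  have hb2 := Equiv.Perm.two_le_of_mem_cycleType hb
  rcases eq_or_ne a b with rfl | hab
  · have h1 : p * q ≤ a :=
      Nat.le_of_dvd (by omega) (((Nat.coprime_primes hp hq).mpr hpq).mul_dvd_of_dvd_of_dvd hpa hqb)
    have h2 : a ≤ m.sum := Multiset.single_le_sum (fun _ _ => Nat.zero_le _) a ha
    have := hp.two_le
    have := hq.two_le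
    nlinarith
  · have h1 : a ::ₘ b ::ₘ 0 ≤ m := by
      refine (Multiset.le_iff_subset ?_).mpr ?_
      · simp [hab]
      · simp [Multiset.subset_iff, ha, hb]
    obtain ⟨u, hu⟩ := Multiset.le_iff_exists_add.mp h1
    have h2 : a + b ≤ m.sum := by rw [hu]; simp
    have := Nat.le_of_dvd (by omega) hpa
    have := Nat.le_of_dvd (by omega) hqb
    omega

theorem dvd_card_of_le {n p : ℕ} (hp : p.Prime) (h3 : 3 ≤ p) (hpn : p ≤ n) :
    p ∣ Nat.card (alternatingGroup (Fin n)) := by
  haveI : Nontrivial (Fin n) := Fin.nontrivial_iff_two_le.mpr (by omega)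
  have h := two_mul_nat_card_alternatingGroup (α := Fin n)
  rw [Nat.card_perm, Nat.card_fin] at h
  have h1 : p ∣ 2 * Nat.card (alternatingGroup (Fin n)) :=
    h ▸ (hp.dvd_factorial).mpr hpn
  exact (hp.dvd_mul.mp h1).resolve_left fun h2 => by have := Nat.le_of_dvd two_pos h2; omega

theorem card_dvd_factorial {n : ℕ} (hn : 2 ≤ n) :
    Nat.card (alternatingGroup (Fin n)) ∣ n.factorial := by
  haveI : Nontrivial (Fin n) := Fin.nontrivial_iff_two_le.mpr hn
  have h := two_mul_nat_card_alternatingGroup (α := Fin n)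
  rw [Nat.card_perm, Nat.card_fin] at h
  exact Dvd.intro_left _ h

theorem not_sq_dvd_factorial {p : ℕ} (hp : p.Prime) : ∀ n, n < 2 * p → ¬ p * p ∣ n.factorial := by
  intro n
  induction n with
  | zero =>
    intro _ h
    exact hp.ne_one (Nat.dvd_one.mp ((dvd_mul_right p p).trans h))
  | succ k ih =>
    intro hk h
    rw [Nat.factorial_succ] at h
    by_cases hpk : p ∣ k + 1
    · obtain ⟨c, hc⟩ := hpk
      have h2 := hp.two_le
      have : c = 1 := by
        rcases c with _ | _ | c
        · omega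
        · rfl
        · exfalso; nlinarith
      subst this
      rw [hc, mul_one] at h
      have h3 := (Nat.mul_dvd_mul_iff_left hp.pos).mp h
      have := hp.dvd_factorial.mp h3
      omega
    · have hcop : Nat.Coprime (p * p) (k + 1) :=
        Nat.Coprime.mul_left (hp.coprime_iff_not_dvd.mpr hpk) (hp.coprime_iff_not_dvd.mpr hpk)
      exact ih (by omega) (hcop.dvd_of_dvd_mul_left h)

/-- Two linked primes in the upper half. -/
theorem big_pair {n : ℕ} (hn : 11 ≤ n) :
    ∃ p q, p.Prime ∧ q.Prime ∧ p < q ∧ n < 2 * p ∧ q ≤ n := by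
  rcases lt_or_ge n 18 with h | h
  · rcases lt_or_ge n 14 with h' | h'
    · exact ⟨7, 11, by norm_num, by norm_num, by omega, by omega, by omega⟩
    · exact ⟨11, 13, by norm_num, by norm_num, by omega, by omega, by omega⟩
  · obtain ⟨p, q, hp, hq, h1, h2, h3⟩ := CfsgLib.PermPrimes.exists_two_primes_gap (n / 2) (by omega)
    exact ⟨p, q, hp, hq, by omega, by omega, by omega⟩

/-- Big primes are linked in a group with order and spectrum of an alternating group. -/
theorem linked_of_big {n : ℕ} (hn : 7 ≤ n)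
    (hcard : Nat.card G = Nat.card ↥(alternatingGroup (Fin n)))
    (hspec : Set.range (orderOf : G → ℕ) = Set.range (orderOf : ↥(alternatingGroup (Fin n)) → ℕ))
    {p q : ℕ} (hp : p.Prime) (hq : q.Prime) (hpn : n < 2 * p) (hp' : p ≤ n)
    (hqn : n < 2 * q) (hq' : q ≤ n) (N : Subgroup G) [N.Normal] :
    p ∣ Nat.card N ↔ q ∣ Nat.card N := by
  rcases eq_or_ne p q with rfl | hne
  · rfl
  have hsq : ∀ r : ℕ, r.Prime → n < 2 * r → ¬ r * r ∣ Nat.card G := fun r hr h1 h2 =>
    not_sq_dvd_factorial hr n h1 ((hcard ▸ h2).trans (card_dvd_factorial (by omega)))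
  have hmod : ∀ r s : ℕ, r.Prime → s.Prime → n < 2 * r → s ≤ n → n < 2 * s → r ≠ s → ¬ r ∣ s - 1 := by
    intro r s hr hs h1 h2 h2' h3 h4
    obtain ⟨c, hc⟩ := h4
    have ho : s % 2 = 1 := hs.eq_two_or_odd.resolve_left (by omega)
    have ho' : r % 2 = 1 := hr.eq_two_or_odd.resolve_left (by omega)
    rcases c with _ | _ | c
    · have := hs.two_le; omega
    · omega
    · nlinarith [hs.two_le, Nat.sub_le s 1]
  refine dvd_iff_of_noPair (a := 1) hp hq hne (hcard ▸ dvd_card_of_le hp (by omega) hp')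
    (hcard ▸ dvd_card_of_le hq (by omega) hq') (hsq q hq hqn)
    (by rw [sq]; exact hsq p hp hpn) ?_ (hmod p q hp hq hpn hq' hqn hne) ?_ N
  · intro i hi1 hi2
    rw [show i = 1 by omega, pow_one]
    exact hmod q p hq hp hqn hp' hpn hne.symm
  · intro z hz
    obtain ⟨w, hw⟩ : p * q ∈ Set.range (orderOf : ↥(alternatingGroup (Fin n)) → ℕ) :=
      hspec ▸ ⟨z, hz⟩
    exact alternating_noPair hp hq hne (by omega) w hw

end CfsgLib.Recog5
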